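import Cfsg.Agent.S0093
import Cfsg.Agent.Lib.Helper2.FrattiniP
import Cfsg.Agent.Lib.Helper51.TI3.Defs

/-!
# S3117: the main induction (helper51)
-/

set_option autoImplicit false

universe u

namespace Cfsg.Agent.Lib.Helper51.TI3

open scoped commutatorElement

/-- An automorphism fixing `N` pointwise and moving every `x` inside `x N` has order dividing
`|N|`. -/
theorem aut_pow_card_eq_one {X : Type u} [Group X] (N : Subgroup X) [Finite N] (α : MulAut X)
    (h1 : ∀ n ∈ N, α n = n) (h2 : ∀ x, x⁻¹ * α x ∈ N) : α ^ Nat.card N = 1 := by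
  have key : ∀ (k : ℕ) (x : X), (α ^ k) x = x * (x⁻¹ * α x) ^ k := by
    intro k
    induction k with
    | zero => intro x; simp
    | succ k ih =>
      intro x
      rw [pow_succ', MulAut.mul_apply, ih, map_mul, map_pow, h1 _ (h2 x),
        pow_succ' (x⁻¹ * α x) k, ← mul_assoc]
      congr 1
      group
  ext x
  rw [key, MulAut.one_apply]
  have h3 : ((⟨x⁻¹ * α x, h2 x⟩ : N)) ^ Nat.card N = 1 := pow_card_eq_one'
  have h4 : (x⁻¹ * α x) ^ Nat.card N = 1 := by
    have h5 := congrArg (Subtype.val : N → X) h3
    rw [Subgroup.coe_pow, Subgroup.coe_one] at h5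
    exact h5
  rw [h4, mul_one]

/-- A group of automorphisms of a finite group all of whose elements have 2-power order is
solvable. -/
theorem solvable_of_two_power {X : Type u} [Group X] [Finite X] (K : Subgroup (MulAut X))
    (hK : ∀ α ∈ K, ∃ k : ℕ, α ^ 2 ^ k = 1) : Group.IsSolvable ↥K := by
  have : Fact (Nat.Prime 2) := ⟨Nat.prime_two⟩
  have hp : IsPGroup 2 ↥K := by
    intro g
    obtain ⟨k, hk⟩ := hK g g.2
    exact ⟨k, Subtype.ext (by simpa using hk)⟩
  have := hp.isNilpotent
  infer_instance

theorem card_sq_subgroup_le {X : Type u} [Group X] [Finite X] (H : Subgroup X) :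
    Nat.card {h : ↥H // h ^ 2 = 1} ≤ Nat.card {x : X // x ^ 2 = 1} := by
  apply Nat.card_le_card_of_injective
    (fun h : {h : ↥H // h ^ 2 = 1} => (⟨(h.1 : X), by
      have h5 := congrArg (Subtype.val : ↥H → X) h.2
      rw [Subgroup.coe_pow, Subgroup.coe_one] at h5
      exact h5⟩ : {x : X // x ^ 2 = 1}))
  intro a b hab
  apply Subtype.ext
  apply Subtype.ext
  exact congrArg (fun t : {x : X // x ^ 2 = 1} => (t : X)) hab

/-- Solvability from a homomorphism with solvable kernel into a solvable group. -/
theorem solvable_of_ker {G H : Type u} [Group G] [Group H] (f : G →* H)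
    (hH : Group.IsSolvable H) (hK : Group.IsSolvable ↥f.ker) : Group.IsSolvable G := by
  apply Group.isSolvable_of_ker_le_range (f.ker.subtype) f
  intro x hx
  exact ⟨⟨x, hx⟩, rfl⟩

theorem main (hAb : LemAb.{u}) (hCE : LemCritExists.{u}) (hCC : LemCritCount.{u})
    (hCH : LemCritHom.{u}) (hQ : LemQuad.{u, u}) :
    ∀ (n : ℕ) {X : Type u} [Group X] [Finite X], Nat.card X = n → IsPGroup 2 X →
      Nat.card {x : X // x ^ 2 = 1} ≤ 4 → Group.IsSolvable (MulAut X) := by
  intro n
  induction n using Nat.strong_induction_on with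
  | _ n ih =>
  intro X _ _ hn hX hcount
  have : Fact (Nat.Prime 2) := ⟨Nat.prime_two⟩
  obtain ⟨H, hchar, hfrat, hcomm, hcen⟩ := Cfsg.Agent.S0093.result (P := X) hX
  by_cases hHtop : H = ⊤
  · -- the critical case
    subst hHtop
    have hcentral : ∀ x y : X, x * y * x⁻¹ * y⁻¹ ∈ Subgroup.center X := by
      intro x y
      have h1 : ⁅x, y⁆ ∈ ⁅(⊤ : Subgroup X), (⊤ : Subgroup X)⁆ :=
        Subgroup.commutator_mem_commutator (Subgroup.mem_top x) (Subgroup.mem_top y)
      have h2 := (hcomm h1).2
      rw [Subgroup.coe_top, Subgroup.centralizer_univ] at h2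
      rwa [commutatorElement_def] at h2
    have hsq : ∀ x : X, x ^ 2 ∈ Subgroup.center X := by
      intro x
      have h1 : ((⟨x, Subgroup.mem_top x⟩ : ↥(⊤ : Subgroup X)) ^ 2) ∈
          frattini ↥(⊤ : Subgroup X) :=
        Cfsg.Agent.Lib.Helper2.pow_mem_frattini (hX.to_subgroup ⊤) _
      have h2 : x ^ 2 ∈ (frattini ↥(⊤ : Subgroup X)).map (⊤ : Subgroup X).subtype :=
        ⟨_, h1, by simp⟩
      have h3 := hfrat h2
      rwa [Subgroup.coe_top, Subgroup.centralizer_univ] at h3
    by_cases hab : ∀ a b : X, a * b = b * a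
    · exact hAb hX hab hcount
    · -- non-abelian: the centre is proper
      have hZtop : Subgroup.center X ≠ ⊤ := by
        intro h
        apply hab
        intro a b
        have ha : a ∈ Subgroup.center X := h ▸ Subgroup.mem_top a
        exact ((Subgroup.mem_center_iff.mp ha) b).symm
      have hZlt : Nat.card ↥(Subgroup.center X) < n := by
        rw [← hn]
        exact lt_of_le_of_ne (Subgroup.card_le_card_group _)
          (fun h => hZtop (Subgroup.eq_top_of_card_eq _ h))
      have hZsolv : Group.IsSolvable (MulAut ↥(Subgroup.center X)) :=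
        ih _ hZlt rfl (hX.to_subgroup _)
          ((card_sq_subgroup_le (Subgroup.center X)).trans hcount)
      have hnt : Nontrivial X := by
        by_contra hnt
        rw [not_nontrivial_iff_subsingleton] at hnt
        apply hab
        intro a b
        rw [Subsingleton.elim a 1, Subsingleton.elim b 1]
      obtain ⟨W, T, _, _, _, _, ⟨D⟩⟩ := hCE hsq hcentral
      obtain ⟨hT2, hN⟩ := hCC D hX hnt hcount
      exact hCH D hX (fun Γ hΓ => hQ D.Q hT2 hN Γ hΓ) hZsolv
  · -- restriction to the critical subgroup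
    have hHinv : ∀ (α : MulAut X) (h : X), h ∈ H → α h ∈ H := by
      intro α h hh
      have h1 := hchar.fixed α
      have h2 : α.symm (α h) ∈ H := by simpa using hh
      have h3 : α h ∈ H.comap α.symm.toMonoidHom := h2
      rw [hchar.fixed α.symm] at h3
      exact h3
    have hHlt : Nat.card ↥H < n := by
      rw [← hn]
      exact lt_of_le_of_ne (Subgroup.card_le_card_group _)
        (fun h => hHtop (Subgroup.eq_top_of_card_eq _ h))
    have hHsolv : Group.IsSolvable (MulAut ↥H) :=
      ih _ hHlt rfl (hX.to_subgroup _) ((card_sq_subgroup_le H).trans hcount)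
    have hHn : H.Normal := inferInstance
    apply solvable_of_ker (resAut H hHinv) hHsolv
    apply solvable_of_two_power
    intro α hα
    rw [MonoidHom.mem_ker] at hα
    have hfix : ∀ h ∈ H, α h = h := by
      intro h hh
      have h1 := congrArg (fun β : MulAut ↥H => ((β ⟨h, hh⟩ : ↥H) : X)) hα
      simpa [resAut_apply] using h1
    have hmove : ∀ x, x⁻¹ * α x ∈ H := by
      intro x
      apply hcen
      rw [Subgroup.mem_centralizer_iff]
      intro h hh
      have h1 : x * h * x⁻¹ ∈ H := hHn.conj_mem h hh x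
      have h2 := hfix _ h1
      rw [map_mul, map_mul, map_inv, hfix h hh] at h2
      -- h2 : α x * h * (α x)⁻¹ = x * h * x⁻¹
      calc h * (x⁻¹ * α x) = x⁻¹ * (x * h * x⁻¹) * α x := by group
        _ = x⁻¹ * (α x * h * (α x)⁻¹) * α x := by rw [h2]
        _ = x⁻¹ * α x * h := by group
    have hpow := aut_pow_card_eq_one H α hfix hmove
    obtain ⟨k, hk⟩ := (hX.to_subgroup H).exists_card_eq
    exact ⟨k, by rw [← hk]; exact hpow⟩

/-- Exactly three involutions: at most four solutions of `x ^ 2 = 1`. -/
theorem card_sq_le_of_three {X : Type u} [Group X] [Finite X]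
    (h3 : Nat.card {x : X // orderOf x = 2} = 3) : Nat.card {x : X // x ^ 2 = 1} ≤ 4 := by
  classical
  have : Fact (Nat.Prime 2) := ⟨Nat.prime_two⟩
  let f : {x : X // x ^ 2 = 1} → Option {x : X // orderOf x = 2} := fun x =>
    if h : (x : X) = 1 then none else some ⟨x.1, orderOf_eq_prime x.2 h⟩
  have hf : Function.Injective f := by
    intro a b hab
    simp only [f] at hab
    by_cases ha : (a : X) = 1
    · by_cases hb : (b : X) = 1
      · exact Subtype.ext (ha.trans hb.symm)
      · simp [ha, hb] at hab
    · by_cases hb : (b : X) = 1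
      · simp [ha, hb] at hab
      · simp only [ha, hb, dite_false, Option.some.injEq, Subtype.mk.injEq] at hab
        exact Subtype.ext hab
  have h1 := Nat.card_le_card_of_injective f hf
  have h2 : Nat.card (Option {x : X // orderOf x = 2}) = 4 := by
    rw [Finite.card_option, h3]
  omega

end Cfsg.Agent.Lib.Helper51.TI3
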