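import Cfsg.Agent.S0144
import Cfsg.Agent.Lib.Helper51.TI3.LemK

/-!
# S3117 package QF (helper51): the automorphism group of a quadratic map with `N₀ · |T| ≤ 4`
is solvable.
-/

set_option autoImplicit false

universe u v

namespace Cfsg.Agent.Lib.Helper51.TI3

/-- A positive integer all of whose prime factors are 2 or 3 is of the form `2 ^ a * 3 ^ b`. -/
theorem two_three_smooth : ∀ n : ℕ, 0 < n → (∀ r : ℕ, r.Prime → r ∣ n → r = 2 ∨ r = 3) →
    ∃ a b : ℕ, n = 2 ^ a * 3 ^ b := by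
  intro n
  induction n using Nat.strong_induction_on with
  | _ n ih =>
  intro hn h
  by_cases h1 : n = 1
  · exact ⟨0, 0, by rw [h1]; rfl⟩
  · have hp := Nat.minFac_prime h1
    obtain ⟨m, hm⟩ := Nat.minFac_dvd n
    have hmpos : 0 < m := by
      rcases Nat.eq_zero_or_pos m with h0 | h0
      · rw [h0, mul_zero] at hm; omega
      · exact h0
    have hmlt : m < n := by
      have := hp.two_le
      nlinarith
    obtain ⟨a, b, hab⟩ := ih m hmlt hmpos (fun r hr hrm => h r hr (hm ▸ Dvd.dvd.mul_left hrm _))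
    rcases h _ hp (Nat.minFac_dvd n) with h2 | h3
    · refine ⟨a + 1, b, ?_⟩
      rw [hm, h2, hab]; ring
    · refine ⟨a, b + 1, ?_⟩
      rw [hm, h3, hab]; ring

/-- (QF) -/
theorem lemQuad (hB2 : LemBound2.{u, v}) (hB4 : LemBound4.{u, v}) (hO : LemOrbit.{u})
    (h7 : LemNo7.{u, v}) (h5 : LemFive.{u, v}) : LemQuad.{u, v} := by
  intro W T _ _ _ _ Q hT2 hN Γ hΓ
  have : Fact (Nat.Prime 2) := ⟨Nat.prime_two⟩
  have hne : Nonempty {w : W // Q.sq w = 1} := ⟨⟨1, Q.sq_one⟩⟩
  have hN0 : 0 < Nat.card {w : W // Q.sq w = 1} := Nat.card_pos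
  have hTp : IsPGroup 2 T := fun t => ⟨1, by rw [pow_one, pow_two]; exact Q.hT t⟩
  have hWp : IsPGroup 2 W := fun t => ⟨1, by rw [pow_one, pow_two]; exact Q.hW t⟩
  obtain ⟨k, hk⟩ := hTp.exists_card_eq
  obtain ⟨m, hm⟩ := hWp.exists_card_eq
  have hT4 : Nat.card T ≤ 4 := by nlinarith
  -- the bounds
  have hW16 : Nat.card W ≤ 16 ∧ Nat.card {w : W // Q.sq w = 1} ≤ 2 ∧
      (Nat.card W = 16 → ∀ w : W, Q.sq w = 1 → w = 1) := by
    have hk2 : k ≤ 2 := by
      by_contra hcon
      have : 2 ^ 3 ≤ 2 ^ k := Nat.pow_le_pow_right (by norm_num) (by omega)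
      rw [← hk] at this
      omega
    interval_cases k
    · rw [hk] at hT2; omega
    · have hT : Nat.card T = 2 := by rw [hk]; rfl
      have hN2 : Nat.card {w : W // Q.sq w = 1} ≤ 2 := by rw [hT] at hN; omega
      have h8 := hB2 Q hT hN2
      exact ⟨by omega, hN2, fun h => by omega⟩
    · have hT : Nat.card T = 4 := by rw [hk]; rfl
      have hN1 : Nat.card {w : W // Q.sq w = 1} ≤ 1 := by rw [hT] at hN; omega
      have hss := Finite.card_le_one_iff_subsingleton.mp hN1
      have haniso : ∀ w : W, Q.sq w = 1 → w = 1 := by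
        intro w hw
        have := hss.elim (⟨w, hw⟩ : {w : W // Q.sq w = 1}) ⟨1, Q.sq_one⟩
        exact congrArg Subtype.val this
      exact ⟨hB4 Q hT haniso, by omega, fun _ => haniso⟩
  obtain ⟨hW16a, hN2, haniso⟩ := hW16
  have hm4 : m ≤ 4 := by
    by_contra hcon
    have : 2 ^ 5 ≤ 2 ^ m := Nat.pow_le_pow_right (by norm_num) (by omega)
    rw [← hm] at this
    omega
  -- prime divisors of |Γ|
  have hprime : ∀ r : ℕ, r.Prime → r ∣ Nat.card ↥Γ → r = 2 ∨ r = 3 ∨ (r = 5 ∧ Nat.card ↥Γ ≤ 10) := by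
    intro r hr hdvd
    have : Fact r.Prime := ⟨hr⟩
    obtain ⟨g, hg⟩ := exists_prime_orderOf_dvd_card' r hdvd
    by_cases hr2 : r = 2
    · exact Or.inl hr2
    right
    have hg' : orderOf (g : MulAut W) = r := by rw [Subgroup.orderOf_coe]; exact hg
    obtain ⟨U, hUinv, hUfix, hUne, hUdvd⟩ := hO Q.hW (g : MulAut W) r hr hr2 hg'
    have hUW : Nat.card ↥U ∣ Nat.card W := Subgroup.card_subgroup_dvd_card U
    rw [hm] at hUW
    obtain ⟨j, hjm, hj⟩ := (Nat.dvd_prime_pow Nat.prime_two).mp hUW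
    have hj4 : j ≤ 4 := hjm.trans hm4
    have hj0 : j ≠ 0 := by
      intro h0
      rw [h0, pow_zero] at hj
      exact hUne (Subgroup.eq_bot_of_card_eq U hj)
    rw [hj] at hUdvd
    interval_cases j
    · exact absurd rfl hj0
    · have : r = 1 := Nat.dvd_one.mp hUdvd
      exact absurd this hr.one_lt.ne'
    · left
      exact (Nat.prime_dvd_prime_iff_eq hr Nat.prime_three).mp hUdvd
    · exfalso
      have h7' : r = 7 := (Nat.prime_dvd_prime_iff_eq hr (by norm_num)).mp hUdvd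
      exact h7 Q hW16a hN2 (g : MulAut W) (hΓ _ g.2) (hg'.trans h7')
    · have h15 : r ∣ 3 * 5 := hUdvd
      rcases (Nat.Prime.dvd_mul hr).mp h15 with h3 | h5'
      · left
        exact (Nat.prime_dvd_prime_iff_eq hr Nat.prime_three).mp h3
      · right
        have hr5 : r = 5 := (Nat.prime_dvd_prime_iff_eq hr Nat.prime_five).mp h5'
        refine ⟨hr5, ?_⟩
        have hU16 : Nat.card ↥U = 16 := by rw [hj]; rfl
        have hW16' : Nat.card W = 16 := by
          have := Subgroup.card_le_card_group U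
          omega
        exact h5 Q hW16a (haniso hW16') Γ hΓ ⟨(g : MulAut W), g.2, hg'.trans hr5⟩
  have hpos : 0 < Nat.card ↥Γ := Nat.card_pos
  by_cases h5dvd : 5 ∣ Nat.card ↥Γ
  · rcases hprime 5 Nat.prime_five h5dvd with h | h | ⟨_, h10⟩
    · omega
    · omega
    · obtain ⟨c, hc⟩ := h5dvd
      have hc12 : c = 1 ∨ c = 2 := by omega
      rcases hc12 with hc1 | hc2
      · exact Cfsg.Agent.S0144.result 5 2 1 0 Nat.prime_five Nat.prime_two (by rw [hc, hc1]; rfl)
      · exact Cfsg.Agent.S0144.result 5 2 1 1 Nat.prime_five Nat.prime_two (by rw [hc, hc2]; rfl)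
  · obtain ⟨a, b, hab⟩ := two_three_smooth _ hpos (fun r hr hdvd => by
      rcases hprime r hr hdvd with h | h | ⟨h, _⟩
      · exact Or.inl h
      · exact Or.inr h
      · exact absurd (h ▸ hdvd) h5dvd)
    exact Cfsg.Agent.S0144.result 2 3 a b Nat.prime_two Nat.prime_three hab

end Cfsg.Agent.Lib.Helper51.TI3
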